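import Cfsg.Agent.H129.IF.F4W
import Cfsg.Agent.H129.IF.Abs

/-!
# `F₄(q)`, `q` even: the end of the proof (helper129)

`end_of` : from "a long root involution in `A` gives `A = ⊤`", "involutions are conjugate into `Q`" and the index of
`N(X_θ)`.
-/

set_option autoImplicit false
set_option linter.unusedSectionVars false

namespace Cfsg.Agent.H129.IFE

open scoped Pointwise
open Cfsg.Lie Cfsg.Agent.ChevalleyStructure Cfsg.Agent.ChevalleyStructure.Elts Cfsg.Agent.H86.Graded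
  Cfsg.Agent.H86.Par Cfsg.Agent.H934.HeisF4Even Cfsg.Agent.H934.HeisF4G2
open Cfsg.Agent.H934.HeisChev (xe)
open Cfsg.Agent.H70.ChevFix (XX mem_XX)
open Cfsg.Agent.H255.IFK (Sp iso rel_ge s2 index_centralizer_le)
open Subgroup

variable {F : Type} [Field F] [Fintype F] [CharP F 2]

theorem exists_two {G : Type*} [Group G] [Finite G] {H : Subgroup G} {n : ℕ} (hc : Nat.card H ∣ 2 ^ n) (h : H ≠ ⊥) :
    ∃ t ∈ H, orderOf t = 2 := by
  have h2 : 2 ∣ Nat.card H := by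
    obtain ⟨k, -, hk⟩ := (Nat.dvd_prime_pow Nat.prime_two).1 hc
    rcases Nat.eq_zero_or_pos k with h0 | h0
    · exfalso
      apply h
      rw [h0, pow_zero] at hk
      exact Subgroup.eq_bot_of_card_eq H hk
    · rw [hk]
      exact dvd_pow_self 2 h0.ne'
  have : Fact (Nat.Prime 2) := ⟨Nat.prime_two⟩
  obtain ⟨t, ht⟩ := exists_prime_orderOf_dvd_card' 2 h2
  exact ⟨t, t.2, by rw [← ht, Subgroup.orderOf_coe]⟩

theorem card_two_pow : ∃ n, Fintype.card F = 2 ^ n := by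
  obtain ⟨n, -, hn⟩ := FiniteField.card F 2
  exact ⟨n, hn⟩

variable (hroot : ∀ A : Subgroup ↥(chevF4.group F), Cfsg.Agent.H255.IFK.Fix A → ∀ a : F, a ≠ 0 → xe hF4 47 a ∈ A → A = ⊤)
  (hconj : ∀ t : ↥(chevF4.group F), orderOf t = 2 → ∃ g : ↥(chevF4.group F), g * t * g⁻¹ ∈ QT chevF4 F 47)
  (hidx : (normalizer (XX chevF4 F 47 : Set ↥(chevF4.group F))).index ≤ 3 * Fintype.card F ^ 15)

section

include hroot in
theorem noZ {A : Subgroup ↥(chevF4.group F)} (hA : Cfsg.Agent.H255.IFK.Fix A) (hne : A ≠ ⊤) : A ⊓ XX chevF4 F 47 = ⊥ := by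
  rw [Subgroup.eq_bot_iff_forall]
  rintro x ⟨hxA, hx⟩
  obtain ⟨t, rfl⟩ := (mem_XX hF4).1 hx
  by_contra hcon
  have ht : t ≠ 0 := by
    rintro rfl
    exact hcon (Cfsg.Agent.H70.ChevFix.xe_zero hF4 47)
  exact hne (hroot A hA t ht hxA)

include hroot hidx in
theorem noW {A : Subgroup ↥(chevF4.group F)} (hA : Cfsg.Agent.H255.IFK.Fix A) (hne : A ≠ ⊤) : A ⊓ WT F = ⊥ := by
  have hfin : Finite (GL chevF4.Idx F) := inferInstance
  have hfinG : Finite ↥(chevF4.group F) := inferInstance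
  have hZ := noZ hroot hA hne
  obtain ⟨q, hq⟩ : ∃ q, q = Nat.card F := ⟨_, rfl⟩
  have hq2 : 2 ≤ q := by
    rw [hq]
    exact Finite.one_lt_card
  rw [← Nat.card_eq_fintype_card, ← hq] at hidx
  by_contra hcon
  obtain ⟨n, hn⟩ := card_two_pow (F := F)
  have hW : Nat.card (WT F) = q ^ 7 := by rw [card_WT, hq]
  have hQ : Nat.card (QT chevF4 F 47) = q ^ 15 := by rw [card_QF, hq]
  have hXX : Nat.card (XX chevF4 F 47) = q := by rw [card_XX hF4 hi47.lt, hq]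
  obtain ⟨t, ⟨htA, htW⟩, ht2⟩ := exists_two (H := A ⊓ WT F) (n := n * 7) (by
    refine (Subgroup.card_dvd_of_le inf_le_right).trans ?_
    rw [card_WT, Nat.card_eq_fintype_card, hn, ← pow_mul]) hcon
  have htQ : t ∈ QT chevF4 F 47 := htW.1
  obtain ⟨f, h1, h2⟩ := hA t htA ht2
  have hQC : QT chevF4 F 47 ≤ centralizer ({t} : Set ↥(chevF4.group F)) := fun x hx =>
    mem_centralizer_singleton_iff.2 (WT_central htW hx)
  have h3 := rel_ge (h1 _ hQC)
  have hne' : ¬ XX chevF4 F 47 ≤ A ⊓ QT chevF4 F 47 := by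
    intro h
    have h4 : XX chevF4 F 47 = ⊥ := by
      rw [eq_bot_iff, ← hZ]
      exact le_inf (h.trans inf_le_left) le_rfl
    rw [h4, Subgroup.card_bot] at hXX
    omega
  have h4 := iso sp (R := A ⊓ QT chevF4 F 47) inf_le_right hne'
  have h5 : A ⊓ QT chevF4 F 47 ⊓ WT F = A ⊓ WT F := by
    rw [inf_assoc, inf_eq_right.2 sp.le']
  rw [h5, hW, hQ] at h4
  have h6 := inf_mul_le A (sp (F := F)).le
  rw [hZ, hXX, hW, Subgroup.card_bot, mul_one] at h6
  -- `|A ∩ W| ≤ q^6`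
  have h7 : Nat.card (A ⊓ WT F : Subgroup ↥(chevF4.group F)) ≤ q ^ 6 := by
    have h8 : Nat.card (A ⊓ WT F : Subgroup ↥(chevF4.group F)) * q ≤ q ^ 6 * q := by
      rw [← pow_succ]; exact h6
    exact Nat.le_of_mul_le_mul_right h8 (by omega)
  have h8 : Nat.card (A ⊓ QT chevF4 F 47 : Subgroup ↥(chevF4.group F)) ≤ q ^ 10 := by
    have h9 : Nat.card (A ⊓ QT chevF4 F 47 : Subgroup ↥(chevF4.group F)) ^ 2 * q ^ 7 ≤ (q ^ 10) ^ 2 * q ^ 7 := by
      calc _ ≤ _ := h4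
        _ ≤ q ^ 15 * (q ^ 6) ^ 2 := Nat.mul_le_mul_left _ (Nat.pow_le_pow_left h7 2)
        _ = _ := by ring
    exact (Nat.pow_le_pow_iff_left two_ne_zero).1 (Nat.le_of_mul_le_mul_right h9 (pow_pos (by omega) _))
  -- `q^5 ≤ f`
  have h9 : q ^ 5 ≤ f := by
    rw [hQ] at h3
    have h10 : q ^ 10 * q ^ 5 ≤ q ^ 10 * f := by
      calc q ^ 10 * q ^ 5 = q ^ 15 := by ring
        _ ≤ _ := h3
        _ ≤ _ := Nat.mul_le_mul_right _ h8
    exact Nat.le_of_mul_le_mul_left h10 (pow_pos (by omega) _)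
  have h10 : 1 ≤ {u : ↥(chevF4.group F) | u ∈ A ∧ IsConj t u}.ncard :=
    (Set.ncard_pos (Set.toFinite _)).2 ⟨t, htA, IsConj.refl t⟩
  have h11 : f ^ 5 < (centralizer ({t} : Set ↥(chevF4.group F))).index :=
    lt_of_le_of_lt (Nat.le_mul_of_pos_right _ h10) h2
  have h12 := index_centralizer_le (N := normalizer (XX chevF4 F 47 : Set ↥(chevF4.group F))) (Q := WT F)
    (fun n hn x hx => (Subgroup.mem_normalizer_iff.1 (normalizer_le_WT hn) x).1 hx) htW
  rw [hW] at h12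
  have h13 : (q ^ 5) ^ 5 < 3 * q ^ 15 * q ^ 7 := by
    calc (q ^ 5) ^ 5 ≤ f ^ 5 := Nat.pow_le_pow_left h9 5
      _ < _ := h11
      _ ≤ _ := h12
      _ ≤ _ := Nat.mul_le_mul_right _ hidx
  have h14 : 3 * q ^ 15 * q ^ 7 ≤ (q ^ 5) ^ 5 := by
    have h15 : 3 ≤ q ^ 3 := by
      calc 3 ≤ 2 ^ 3 := by norm_num
        _ ≤ q ^ 3 := Nat.pow_le_pow_left hq2 3
    calc 3 * q ^ 15 * q ^ 7 = 3 * q ^ 22 := by ring
      _ ≤ q ^ 3 * q ^ 22 := Nat.mul_le_mul_right _ h15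
      _ = _ := by ring
  omega

include hroot hidx in
theorem noQ {A : Subgroup ↥(chevF4.group F)} (hA : Cfsg.Agent.H255.IFK.Fix A) (hne : A ≠ ⊤) {t : ↥(chevF4.group F)} (ht : t ∈ A)
    (htQ : t ∈ QT chevF4 F 47) (ht2 : orderOf t = 2) : False := by
  have hfin : Finite (GL chevF4.Idx F) := inferInstance
  have hfinG : Finite ↥(chevF4.group F) := inferInstance
  have hZ := noZ hroot hA hne
  have hWb := noW hroot hidx hA hne
  obtain ⟨q, hq⟩ : ∃ q, q = Nat.card F := ⟨_, rfl⟩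
  have hq2 : 2 ≤ q := by
    rw [hq]
    exact Finite.one_lt_card
  rw [← Nat.card_eq_fintype_card, ← hq] at hidx
  have hW : Nat.card (WT F) = q ^ 7 := by rw [card_WT, hq]
  have hQ : Nat.card (QT chevF4 F 47) = q ^ 7 * (q ^ 4) ^ 2 := by rw [card_QF, hq]; ring
  have hXX : Nat.card (XX chevF4 F 47) = q := by rw [card_XX hF4 hi47.lt, hq]
  have hne' : ¬ XX chevF4 F 47 ≤ A := by
    intro h
    have h4 : XX chevF4 F 47 = ⊥ := by
      rw [eq_bot_iff, ← hZ]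
      exact le_inf h le_rfl
    rw [h4, Subgroup.card_bot] at hXX
    omega
  have h1 := s2 hA sp hXX hW hQ (w := 1) (by rw [hWb, Subgroup.card_bot]) hne' ht htQ ht2
  have h2 := index_centralizer_le (N := normalizer (XX chevF4 F 47 : Set ↥(chevF4.group F))) (Q := QT chevF4 F 47)
    (fun n hn x hx => by
      have h3 := normalizer_le (F := F) hF4 (g := n)
      rw [nr] at h3
      exact (Subgroup.mem_normalizer_iff.1 (h3 hn) x).1 hx) htQ
  rw [hQ] at h2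
  have h3 : (q ^ 7 * q ^ 4) ^ 5 < (q * 1) ^ 5 * (3 * q ^ 15 * (q ^ 7 * (q ^ 4) ^ 2)) := by
    calc _ < _ := h1
      _ ≤ _ := Nat.mul_le_mul_left _ (h2.trans (Nat.mul_le_mul_right _ hidx))
  have h4 : (q * 1) ^ 5 * (3 * q ^ 15 * (q ^ 7 * (q ^ 4) ^ 2)) ≤ (q ^ 7 * q ^ 4) ^ 5 := by
    have h15 : 3 ≤ q ^ 20 := by
      calc 3 ≤ 2 ^ 20 := by norm_num
        _ ≤ q ^ 20 := Nat.pow_le_pow_left hq2 20
    calc (q * 1) ^ 5 * (3 * q ^ 15 * (q ^ 7 * (q ^ 4) ^ 2)) = 3 * q ^ 35 := by ring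
      _ ≤ q ^ 20 * q ^ 35 := Nat.mul_le_mul_right _ h15
      _ = _ := by ring
  omega

include hroot hconj hidx in
/-- **The end.** -/
theorem end_of {A : Subgroup ↥(chevF4.group F)} (hA : Cfsg.Agent.H255.IFK.Fix A) {t : ↥(chevF4.group F)} (ht : t ∈ A)
    (ht2 : orderOf t = 2) : A = ⊤ := by
  have hfin : Finite (GL chevF4.Idx F) := inferInstance
  have hfinG : Finite ↥(chevF4.group F) := inferInstance
  by_contra hne
  obtain ⟨g, hg⟩ := hconj t ht2
  have hA' := hA.conj g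
  have hne' : MulAut.conj g • A ≠ ⊤ := by
    intro h
    apply hne
    have h1 := congrArg (fun K : Subgroup ↥(chevF4.group F) => (MulAut.conj g)⁻¹ • K) h
    simp only [inv_smul_smul] at h1
    rw [h1]
    rw [eq_top_iff]
    intro x _
    rw [Subgroup.mem_pointwise_smul_iff_inv_smul_mem]
    exact Subgroup.mem_top _
  refine noQ hroot hidx hA' hne' (t := g * t * g⁻¹) (Cfsg.Agent.H255.IFK.conj_mem_conj ht) hg ?_
  rw [← ht2]
  have := orderOf_injective (MulAut.conj g).toMonoidHom (MulAut.conj g).injective t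
  rw [← this]
  congr 1

end

end Cfsg.Agent.H129.IFE
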