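import Cfsg.Agent.H129.IF.QCard
import Cfsg.Agent.H934.HeisF4Even
import Cfsg.Agent.H255.IF.Key

/-!
# `F₄(q)`, `q` even: the centre `W` of `Q` (helper129)

* `WT F` : the subgroup of `Q` of the elements with trivial coordinates at the 8 long roots of level one;
* `sp` : `Sp (X_θ) W Q`; `card_QF`, `card_WT` : `|Q| = q^15`, `|W| = q^7`;
* `normalizer_le_WT` : `N(X_θ) ≤ N(W)`.
-/

set_option autoImplicit false
set_option linter.unusedSectionVars false

namespace Cfsg.Agent.H129.IFE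

open Cfsg.Lie Cfsg.Agent.ChevalleyStructure Cfsg.Agent.ChevalleyStructure.RootCombGood
  Cfsg.Agent.ChevalleyStructure.RootWord Cfsg.Agent.ChevalleyStructure.RootVec
  Cfsg.Agent.ChevalleyStructure.Elts Cfsg.Agent.H86.Lev Cfsg.Agent.H86.Graded Cfsg.Agent.H86.Par
  Cfsg.Agent.H934.HeisF4Even Cfsg.Agent.H934.HeisF4G2
open Cfsg.Agent.H934.HeisChev (xe xe_add xe_zero comm_single)
open Cfsg.Agent.H70.ChevFix (XX mem_XX)
open Cfsg.Agent.H255.IFK (Sp)

universe u

variable {F : Type u} [Field F]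

theorem hi47 : Hi chevF4 47 := (hi_of_mem hF4).1

theorem hi00 : Hi chevF4 0 := (hi_of_mem hF4).2

theorem mem_QT_xe {r : ℕ} (hr : r < chevF4.nroots) (h : 1 ≤ car chevF4 47 r) (t : F) :
    xe hF4 r t ∈ QT chevF4 F 47 := xG_mem_Q hF4 hr h t

theorem lev_S : ∀ i, tabL.S i < chevF4.nroots ∧ car chevF4 47 (tabL.S i) = 1 := by decide +kernel

theorem lev_E : ∀ k, rE k < chevF4.nroots ∧ 1 ≤ car chevF4 47 (rE k) := by decide +kernel

theorem lev_all : ∀ r < chevF4.nroots, 1 ≤ car chevF4 47 r → (∃ i, r = tabL.S i) ∨ ∃ k, r = rE k := by decide +kernel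

theorem lev1_len : (lev1 chevF4 47).length = 14 ∧ (lev1 chevF4 0).length = 14 := by decide +kernel

theorem lev1_all : ∀ r ∈ lev1 chevF4 47, (∃ i, r = tabL.S i) ∨ ∃ k, r = rE k := by decide +kernel

theorem S_inj : ∀ i j, tabL.S i = tabL.S j → i = j := by decide +kernel

theorem S_ne_E : ∀ i k, tabL.S i ≠ rE k := by decide +kernel

theorem nr : chevF4.nroots - 1 = 47 := by decide +kernel

/-- the coordinates at the long roots -/
def kS (i : Fin 8) (v : ↥(chevF4.group F)) : F := kap chevF4 47 (tabL.S i) ((v : GL chevF4.Idx F) : Matrix _ _ F)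

theorem kS_mul (i : Fin 8) {v w : ↥(chevF4.group F)} (hv : v ∈ QT chevF4 F 47) (hw : w ∈ QT chevF4 F 47) :
    kS i (v * w) = kS i v + kS i w :=
  kap_mul hF4 (good hF4) hi47 (lev_S i).1 (lev_S i).2 (Q_le_Rg hF4 47 hv) (Q_le_Rg hF4 47 hw)

theorem kS_one (i : Fin 8) : kS i (1 : ↥(chevF4.group F)) = 0 := kap_one hF4 (good hF4) hi47 (lev_S i).1 (lev_S i).2

theorem kS_inv (i : Fin 8) {v : ↥(chevF4.group F)} (hv : v ∈ QT chevF4 F 47) : kS i v⁻¹ = - kS i v := by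
  have h := kS_mul i (Subgroup.inv_mem _ hv) hv
  rw [inv_mul_cancel, kS_one] at h
  exact eq_neg_of_add_eq_zero_left h.symm

theorem kS_self (i : Fin 8) (t : F) : kS i (xe hF4 (tabL.S i) t) = t := by
  show kap chevF4 47 (tabL.S i) ((xG hF4 (tabL.S i) t : GL chevF4.Idx F) : Matrix _ _ F) = t
  rw [coe_xG]
  exact kap_x_self hF4 (good hF4) hi47 (lev_S i).1 (lev_S i).2 t

theorem kS_ne (i : Fin 8) {r : ℕ} (hr : r < chevF4.nroots) (h1 : 1 ≤ car chevF4 47 r) (hri : r ≠ tabL.S i) (t : F) :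
    kS i (xe hF4 r t) = 0 := by
  show kap chevF4 47 (tabL.S i) ((xG hF4 r t : GL chevF4.Idx F) : Matrix _ _ F) = 0
  rw [coe_xG]
  exact kap_x_ne hF4 (good hF4) hi47 (lev_S i).1 (lev_S i).2 hr h1 hri t

/-- **The centre of `Q`** -/
def WT (F : Type u) [Field F] : Subgroup ↥(chevF4.group F) where
  carrier := {v | v ∈ QT chevF4 F 47 ∧ ∀ i, kS i v = 0}
  one_mem' := ⟨one_mem _, fun i => kS_one i⟩
  mul_mem' := by
    rintro a b ⟨ha, ha'⟩ ⟨hb, hb'⟩
    exact ⟨mul_mem ha hb, fun i => by rw [kS_mul i ha hb, ha', hb', add_zero]⟩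
  inv_mem' := by
    rintro a ⟨ha, ha'⟩
    exact ⟨inv_mem ha, fun i => by rw [kS_inv i ha, ha', _root_.neg_zero]⟩

theorem mem_WT {v : ↥(chevF4.group F)} : v ∈ WT F ↔ v ∈ QT chevF4 F 47 ∧ ∀ i, kS i v = 0 := Iff.rfl

variable [CharP F 2]

/-- the root groups of `W` commute with `Q` -/
theorem comm_E (k : Fin 7) {r : ℕ} (hr : r < chevF4.nroots) (h1 : 1 ≤ car chevF4 47 r) (t u : F) :
    xe hF4 r u * xe hF4 (rE k) t = xe hF4 (rE k) t * xe hF4 r u := by
  rcases lev_all r hr h1 with ⟨i, rfl⟩ | ⟨l, rfl⟩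
  · obtain ⟨h2, h3, h4⟩ := S_rE k i
    exact comm2_nil hF4 (rE_lt k) (lev_S i).1 h2 h3 h4 t u
  · rcases eq_or_ne k l with rfl | hkl
    · rw [← xe_add, ← xe_add, add_comm]
    · obtain ⟨h2, h3, h4⟩ := rE_ne k l hkl
      exact comm2_nil hF4 (rE_lt k) (rE_lt l) h2 h3 h4 t u

theorem QT_le_of {K : Subgroup ↥(chevF4.group F)}
    (h : ∀ r < chevF4.nroots, 1 ≤ car chevF4 47 r → ∀ t : F, xe hF4 r t ∈ K) : QT chevF4 F 47 ≤ K := by
  have h1 : Q chevF4 F 47 ≤ K.map (chevF4.group F).subtype :=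
    (Q_le_iff hF4).2 fun r hr h2 t => ⟨xe hF4 r t, h r hr h2 t, rfl⟩
  intro x hx
  obtain ⟨y, hy, e⟩ := h1 hx
  have : y = x := Subtype.ext e
  rwa [← this]

theorem rE_central (k : Fin 7) (t : F) {x : ↥(chevF4.group F)} (hx : x ∈ QT chevF4 F 47) :
    x * xe hF4 (rE k) t = xe hF4 (rE k) t * x := by
  have : QT chevF4 F 47 ≤ Subgroup.centralizer ({xe hF4 (rE k) t} : Set ↥(chevF4.group F)) := by
    apply QT_le_of
    intro r hr h1 u
    rw [Subgroup.mem_centralizer_singleton_iff]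
    exact comm_E k hr h1 t u
  exact Subgroup.mem_centralizer_singleton_iff.1 (this hx)

theorem rE_six : rE 6 = 47 := rfl

theorem rE_centralG (k : Fin 7) (t : F) {x : ↥(chevF4.group F)} (hx : x ∈ QT chevF4 F 47) :
    (x : GL chevF4.Idx F) * xG hF4 (rE k) t = xG hF4 (rE k) t * (x : GL chevF4.Idx F) :=
  congrArg (fun y : ↥(chevF4.group F) => (y : GL chevF4.Idx F)) (rE_central k t hx)

theorem Wd_central {x : ↥(chevF4.group F)} (hx : x ∈ QT chevF4 F 47) (c : ℕ → F) (hc : ∀ i, c (tabL.S i) = 0) :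
    ∀ l : List ℕ, (∀ r ∈ l, (∃ i, r = tabL.S i) ∨ ∃ k, r = rE k) →
      (x : GL chevF4.Idx F) * Wd hF4 l c = Wd hF4 l c * (x : GL chevF4.Idx F) := by
  intro l
  induction l with
  | nil =>
    intro _
    show (x : GL chevF4.Idx F) * 1 = 1 * x
    rw [mul_one, one_mul]
  | cons r l ih =>
    intro hl
    have h1 := ih fun s hs => hl s (List.mem_cons_of_mem _ hs)
    have h2 : (x : GL chevF4.Idx F) * xG hF4 r (c r) = xG hF4 r (c r) * (x : GL chevF4.Idx F) := by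
      rcases hl r List.mem_cons_self with ⟨i, hi⟩ | ⟨k, hk⟩
      · rw [hi, hc i, xG_zero, mul_one, one_mul]
      · rw [hk]
        exact rE_centralG k _ hx
    rw [Wd_cons, ← mul_assoc, h2, mul_assoc, h1, mul_assoc]

/-- `W` is central in `Q` -/
theorem WT_central {w x : ↥(chevF4.group F)} (hw : w ∈ WT F) (hx : x ∈ QT chevF4 F 47) : x * w = w * x := by
  obtain ⟨hwQ, hk⟩ := hw
  have hwQ' : (w : GL chevF4.Idx F) ∈ Q chevF4 F 47 := hwQ
  have hk' : ∀ i, kap chevF4 47 (tabL.S i) ((w : GL chevF4.Idx F) : Matrix _ _ F) = 0 := hk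
  obtain ⟨t, ht⟩ := form hF4 (good hF4) hi47 hwQ'
  have h1 := Wd_central hx (fun s => kap chevF4 47 s ((w : GL chevF4.Idx F) : Matrix _ _ F)) hk' _ lev1_all
  have h4 : (x : GL chevF4.Idx F) * xG hF4 47 t = xG hF4 47 t * (x : GL chevF4.Idx F) :=
    Q_comm_top hF4 (good hF4) hi47 hx t
  apply Subtype.ext
  show (x : GL chevF4.Idx F) * (w : GL chevF4.Idx F) = (w : GL chevF4.Idx F) * (x : GL chevF4.Idx F)
  have key : ∀ (y W : GL chevF4.Idx F), W = y * xG hF4 47 t → (x : GL chevF4.Idx F) * y = y * (x : GL chevF4.Idx F) →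
      (x : GL chevF4.Idx F) * W = W * (x : GL chevF4.Idx F) := by
    intro y W hW hy
    rw [hW, ← mul_assoc, hy, mul_assoc, h4, mul_assoc]
  exact key _ _ ht h1

theorem e_cast (i : Fin 8) : (-(tabL.e i : F)) = 1 := by
  have h : ∀ i, tabL.e i % 2 = 1 := by decide +kernel
  rw [CharTwo.neg_eq]
  have h1 := h i
  exact cast_odd (by omega)

theorem comm_S (i : Fin 8) (a c : F) : xe hF4 (tabL.S i) a * xe hF4 (tabL.S (tabL.opp i)) c *
    (xe hF4 (tabL.S i) a)⁻¹ * (xe hF4 (tabL.S (tabL.opp i)) c)⁻¹ = xe hF4 47 (a * c) := by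
  have hij : i ≠ tabL.opp i := (tabL_ok.opp_ne i).symm
  obtain ⟨h1, h2, h3⟩ := tabL_ok.S_ne i (tabL.opp i) hij
  rw [if_pos rfl] at h3
  have h4 := comm_single (F := F) hF4 (tabL_ok.S_lt (tabL.opp i)) (tabL_ok.S_lt i) h1 h2 h3 c a
  rw [e_cast, one_mul] at h4
  have h5 : ∀ v, v ∈ QT chevF4 F 47 → v * xe hF4 47 (c * a) = xe hF4 47 (c * a) * v := fun v hv =>
    rE_central 6 (c * a) hv
  have h6 := h5 _ (mul_mem (mem_QT_xe (lev_S (tabL.opp i)).1 (lev_S (tabL.opp i)).2.ge c)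
    (mem_QT_xe (lev_S i).1 (lev_S i).2.ge a))
  have h7 : xe hF4 (tabL.S i) a * xe hF4 (tabL.S (tabL.opp i)) c =
      xe hF4 47 (c * a) * (xe hF4 (tabL.S (tabL.opp i)) c * xe hF4 (tabL.S i) a) := by
    rw [← h6]
    exact h4
  rw [h7, mul_comm c a]
  group

/-- the commutators with `x_s(c)`, `s` long of level one -/
theorem comm_opp (i : Fin 8) (c : F) {v : ↥(chevF4.group F)} (hv : v ∈ QT chevF4 F 47) :
    v * xe hF4 (tabL.S (tabL.opp i)) c * v⁻¹ * (xe hF4 (tabL.S (tabL.opp i)) c)⁻¹ = xe hF4 47 (kS i v * c) := by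
  obtain ⟨y, hy⟩ : ∃ y, y = xe hF4 (tabL.S (tabL.opp i)) c := ⟨_, rfl⟩
  rw [← hy]
  have hcen : ∀ v ∈ QT chevF4 F 47, ∀ b : F, v * xe hF4 47 b = xe hF4 47 b * v := fun v hv b => rE_central 6 b hv
  let K : Subgroup ↥(chevF4.group F) :=
    { carrier := {v | v ∈ QT chevF4 F 47 ∧ v * y * v⁻¹ * y⁻¹ = xe hF4 47 (kS i v * c)}
      one_mem' := ⟨one_mem _, by rw [kS_one, zero_mul, xe_zero]; group⟩
      mul_mem' := by
        rintro v w ⟨hv, hv'⟩ ⟨hw, hw'⟩
        refine ⟨mul_mem hv hw, ?_⟩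
        have e : v * w * y * (v * w)⁻¹ * y⁻¹ = v * (w * y * w⁻¹ * y⁻¹) * v⁻¹ * (v * y * v⁻¹ * y⁻¹) := by group
        rw [e, hw', hcen v hv, mul_inv_cancel_right, hv', ← xe_add, kS_mul i hv hw, add_mul, add_comm]
      inv_mem' := by
        rintro v ⟨hv, hv'⟩
        refine ⟨inv_mem hv, ?_⟩
        have e : v⁻¹ * y * v⁻¹⁻¹ * y⁻¹ = v⁻¹ * (v * y * v⁻¹ * y⁻¹)⁻¹ * v := by group
        rw [e, hv', ← Cfsg.Agent.H934.HeisChev.xe_neg, hcen v⁻¹ (inv_mem hv), inv_mul_cancel_right, kS_inv i hv, neg_mul] }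
  have hK : QT chevF4 F 47 ≤ K := by
    apply QT_le_of
    intro r hr h1 t
    refine ⟨mem_QT_xe hr h1 t, ?_⟩
    by_cases hri : r = tabL.S i
    · subst hri
      rw [hy, kS_self, comm_S]
    · rw [kS_ne i hr h1 hri, zero_mul, xe_zero, hy]
      have hc : xe hF4 r t * xe hF4 (tabL.S (tabL.opp i)) c = xe hF4 (tabL.S (tabL.opp i)) c * xe hF4 r t := by
        rcases lev_all r hr h1 with ⟨j, rfl⟩ | ⟨l, rfl⟩
        · rcases eq_or_ne j (tabL.opp i) with rfl | hj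
          · rw [← xe_add, ← xe_add, add_comm]
          · obtain ⟨h2, h3, h4⟩ := tabL_ok.S_ne j (tabL.opp i) hj
            rw [if_neg (fun h5 => hri (by rw [← tabL_ok.opp_opp i, h5, tabL_ok.opp_opp]))] at h4
            exact Cfsg.Agent.H934.HeisChev.comm_nil hF4 (tabL_ok.S_lt _) (tabL_ok.S_lt _) h2 h3 h4 c t
        · exact (comm_E l (lev_S (tabL.opp i)).1 (lev_S (tabL.opp i)).2.ge t c).symm
      rw [hc]
      group
  exact (hK hv).2

/-- **`Q` modulo `W` is special.** -/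
theorem sp : Sp (XX chevF4 F 47) (WT F) (QT chevF4 F 47) where
  le := by
    intro x hx
    obtain ⟨t, rfl⟩ := (mem_XX hF4).1 hx
    exact ⟨mem_QT_xe (lev_E 6).1 (lev_E 6).2 t, fun i => kS_ne i (lev_E 6).1 (lev_E 6).2 (S_ne_E i 6).symm t⟩
  le' := fun x hx => hx.1
  central := fun w hw x hx => WT_central hw hx
  comm_mem := fun x hx y hy => comm_QT hF4 hi47 hx hy
  special := by
    intro x hx hxW z hz
    obtain ⟨b, rfl⟩ := (mem_XX hF4).1 hz
    obtain ⟨i, hi⟩ : ∃ i, kS i x ≠ 0 := by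
      by_contra hcon
      push Not at hcon
      exact hxW ⟨hx, hcon⟩
    refine ⟨xe hF4 (tabL.S (tabL.opp i)) (b / kS i x), mem_QT_xe (lev_S _).1 (lev_S _).2.ge _, ?_⟩
    rw [comm_opp i _ hx, mul_div_cancel₀ _ hi]
    rfl

omit [CharP F 2] in
theorem card_QF [Finite F] : Nat.card (QT chevF4 F 47) = Nat.card F ^ 15 := by
  rw [card_QT hF4 hi47, lev1_len.1]

omit [CharP F 2] in
theorem card_QF0 [Finite F] : Nat.card (QT chevF4 F 0) = Nat.card F ^ 15 := by
  rw [card_QT hF4 hi00, lev1_len.2]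

omit [CharP F 2] in
/-- **The order of `W`** -/
theorem card_WT [Finite F] : Nat.card (WT F) = Nat.card F ^ 7 := by
  classical
  have hfinG : Finite (GL chevF4.Idx F) := inferInstance
  let κ : ↥(QT chevF4 F 47) →* Multiplicative (Fin 8 → F) :=
    MonoidHom.mk' (fun v => Multiplicative.ofAdd fun i => kS i (v : ↥(chevF4.group F))) (by
      intro a b
      rw [← ofAdd_add]
      congr 1
      funext i
      exact kS_mul i a.2 b.2)
  have hsurj : Function.Surjective κ := by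
    intro c
    have hcl : ∀ c : Fin 8 → F, Multiplicative.ofAdd c ∈ κ.range := by
      intro c
      have h1 : c = ∑ i, Pi.single i (c i) := (Finset.univ_sum_single c).symm
      rw [h1, ofAdd_sum]
      refine Subgroup.prod_mem _ fun i _ => ?_
      refine ⟨⟨xe hF4 (tabL.S i) (c i), mem_QT_xe (lev_S i).1 (lev_S i).2.ge _⟩, ?_⟩
      show Multiplicative.ofAdd _ = Multiplicative.ofAdd _
      congr 1
      funext j
      show kS j (xe hF4 (tabL.S i) (c i)) = _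
      by_cases hij : j = i
      · subst hij
        rw [kS_self, Pi.single_eq_same]
      · rw [Pi.single_eq_of_ne hij, kS_ne j (lev_S i).1 (lev_S i).2.ge (fun h => hij (S_inj _ _ h).symm)]
    exact hcl (Multiplicative.toAdd c)
  have hker : κ.ker = (WT F).subgroupOf (QT chevF4 F 47) := by
    ext v
    rw [MonoidHom.mem_ker, Subgroup.mem_subgroupOf, mem_WT]
    constructor
    · intro h
      refine ⟨v.2, fun i => ?_⟩
      exact congrFun (Multiplicative.ofAdd.injective h) i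
    · rintro ⟨-, h⟩
      show Multiplicative.ofAdd _ = Multiplicative.ofAdd _
      congr 1
      funext i
      exact h i
  have h1 := κ.ker.card_mul_index
  rw [Subgroup.index_ker, MonoidHom.range_eq_top.2 hsurj, Subgroup.card_top, hker, card_QF] at h1
  have h2 : Nat.card ((WT F).subgroupOf (QT chevF4 F 47)) = Nat.card (WT F) :=
    Nat.card_congr (Subgroup.subgroupOfEquivOfLe (show WT F ≤ QT chevF4 F 47 from fun x hx => (mem_WT.1 hx).1)).toEquiv
  have h3 : Nat.card (Multiplicative (Fin 8 → F)) = Nat.card F ^ 8 := by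
    show Nat.card (Fin 8 → F) = _
    rw [Nat.card_fun, Nat.card_eq_fintype_card (α := Fin 8), Fintype.card_fin]
  rw [h2, h3] at h1
  have h4 : 0 < Nat.card F ^ 8 := pow_pos Nat.card_pos _
  apply Nat.eq_of_mul_eq_mul_right h4
  rw [h1]
  ring

/-- `N(X_θ) ≤ N(W)` -/
theorem normalizer_le_WT {g : ↥(chevF4.group F)}
    (hg : g ∈ Subgroup.normalizer (XX chevF4 F 47 : Set ↥(chevF4.group F))) :
    g ∈ Subgroup.normalizer (WT F : Set ↥(chevF4.group F)) := by
  have key : ∀ g : ↥(chevF4.group F), g ∈ Subgroup.normalizer (XX chevF4 F 47 : Set ↥(chevF4.group F)) →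
      ∀ x ∈ WT F, g * x * g⁻¹ ∈ WT F := by
    intro g hg x hx
    have hgQ : g ∈ Subgroup.normalizer (QT chevF4 F 47 : Set ↥(chevF4.group F)) := by
      have := normalizer_le (F := F) hF4 (g := g)
      rw [nr] at this
      exact this hg
    have h1 : g * x * g⁻¹ ∈ QT chevF4 F 47 := (Subgroup.mem_normalizer_iff.1 hgQ x).1 hx.1
    by_contra hcon
    obtain ⟨y, hy, hyz⟩ := sp.special _ h1 hcon (xe hF4 47 1) ((mem_XX hF4).2 ⟨1, rfl⟩)
    have h2 : g⁻¹ * y * g ∈ QT chevF4 F 47 := by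
      have h3 := (Subgroup.mem_normalizer_iff.1 (inv_mem hgQ) y).1 hy
      rwa [inv_inv] at h3
    have h4 := WT_central hx h2
    have h5 : xe hF4 47 (1 : F) = 1 := by
      rw [← hyz]
      have e : g * x * g⁻¹ * y * (g * x * g⁻¹)⁻¹ * y⁻¹ = g * (x * (g⁻¹ * y * g)) * x⁻¹ * g⁻¹ * y⁻¹ := by group
      rw [e, ← h4]
      group
    exact one_ne_zero (Cfsg.Agent.H934.HeisChev.xe_eq_one hF4 hi47.lt h5)
  refine mem_normalizer_of (key g hg) (fun x hx => ?_)
  have := key g⁻¹ (inv_mem hg) x hx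
  rwa [inv_inv] at this

end Cfsg.Agent.H129.IFE
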