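import Cfsg.Agent.H86.Par
import Cfsg.Agent.H70.ChevFix

/-!
# The unipotent radical `Q` of the parabolic of a highest root: order, commutators (helper129)

* `card_Q` : `|Q| = q ^ (n + 1)`, `n` the number of roots of level one;
* `comm_Q` : `[Q, Q] ≤ X_β`;
* `QT` : `Q` as a subgroup of the Chevalley group; `normalizer_le` : `N(X_θ) ≤ N(Q)`;
* `comm_zero` : elements of the opposite `Q` commuting with `x_θ(t)` are trivial.
-/

set_option autoImplicit false
set_option linter.unusedSectionVars false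

namespace Cfsg.Agent.H129.IFE

open Cfsg.Lie Cfsg.Agent.ChevalleyStructure Cfsg.Agent.ChevalleyStructure.RootCombGood
  Cfsg.Agent.ChevalleyStructure.RootWord Cfsg.Agent.ChevalleyStructure.RootVec
  Cfsg.Agent.ChevalleyStructure.RootVecTab Cfsg.Agent.ChevalleyStructure.RootSupport
  Cfsg.Agent.ChevalleyStructure.Elts Cfsg.Agent.H86.Lev Cfsg.Agent.H86.Graded Cfsg.Agent.H86.Par

universe u

/-- commutators of a group generated by a set -/
theorem comm_closure {G : Type*} [Group G] {S : Set G} {Z : Subgroup G}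
    (hZ : ∀ z ∈ Z, ∀ g ∈ Subgroup.closure S, g * z = z * g) (h : ∀ a ∈ S, ∀ b ∈ S, a * b * a⁻¹ * b⁻¹ ∈ Z) :
    ∀ x ∈ Subgroup.closure S, ∀ y ∈ Subgroup.closure S, x * y * x⁻¹ * y⁻¹ ∈ Z := by
  have key : ∀ y ∈ Subgroup.closure S, (∀ a ∈ S, a * y * a⁻¹ * y⁻¹ ∈ Z) →
      ∀ x ∈ Subgroup.closure S, x * y * x⁻¹ * y⁻¹ ∈ Z := by
    intro y hy ha x hx
    induction hx using Subgroup.closure_induction with
    | mem a h1 => exact ha a h1
    | one => simp
    | mul v w hv hw h1 h2 =>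
      have h3 : v * (w * y * w⁻¹ * y⁻¹) = (w * y * w⁻¹ * y⁻¹) * v := hZ _ h2 v hv
      have e : v * w * y * (v * w)⁻¹ * y⁻¹ = v * (w * y * w⁻¹ * y⁻¹) * y * v⁻¹ * y⁻¹ := by group
      rw [e, h3]
      have e2 : w * y * w⁻¹ * y⁻¹ * v * y * v⁻¹ * y⁻¹ = (w * y * w⁻¹ * y⁻¹) * (v * y * v⁻¹ * y⁻¹) := by group
      rw [e2]
      exact Z.mul_mem h2 h1
    | inv v hv h1 =>
      have h3 : v⁻¹ * (v * y * v⁻¹ * y⁻¹)⁻¹ = (v * y * v⁻¹ * y⁻¹)⁻¹ * v⁻¹ :=
        hZ _ (Z.inv_mem h1) v⁻¹ (Subgroup.inv_mem _ hv)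
      have e : v⁻¹ * y * v⁻¹⁻¹ * y⁻¹ = v⁻¹ * (v * y * v⁻¹ * y⁻¹)⁻¹ * v := by group
      rw [e, h3, inv_mul_cancel_right]
      exact Z.inv_mem h1
  intro x hx y hy
  refine key y hy (fun a ha => ?_) x hx
  have h1 : y * a * y⁻¹ * a⁻¹ ∈ Z := key a (Subgroup.subset_closure ha) (fun b hb => h b hb a ha) y hy
  have e : a * y * a⁻¹ * y⁻¹ = (y * a * y⁻¹ * a⁻¹)⁻¹ := by group
  rw [e]
  exact Z.inv_mem h1

variable {D : ChevalleyDatum} {F : Type u} [Field F] {β : ℕ}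

theorem xb_mem_Q (hD : InList D) (T : Hi D β) (t : F) : xG hD β t ∈ Q D F β :=
  xG_mem_Q hD T.lt (by rw [(good hD).car_self T.lt]; norm_num) t

theorem Q_eq_closure (hD : InList D) : Q D F β = Subgroup.closure
    {g : GL D.Idx F | ∃ (r : ℕ) (t : F), r < D.nroots ∧ 1 ≤ car D β r ∧ g = xG hD r t} := by
  unfold Q
  congr 1
  ext g
  constructor
  · rintro ⟨r, t, h1, h2, h3⟩
    exact ⟨r, t, h1, h2, Units.ext (by rw [h3, coe_xG])⟩
  · rintro ⟨r, t, h1, h2, rfl⟩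
    exact ⟨r, t, h1, h2, coe_xG hD r t⟩

/-- **`[Q, Q] ≤ X_β`.** -/
theorem comm_Q (hD : InList D) (T : Hi D β) {x y : GL D.Idx F} (hx : x ∈ Q D F β) (hy : y ∈ Q D F β) :
    x * y * x⁻¹ * y⁻¹ ∈ D.rootSubgroup F β := by
  rw [Q_eq_closure hD] at hx hy
  refine comm_closure (Z := D.rootSubgroup F β) ?_ ?_ x hx y hy
  · intro z hz g hg
    obtain ⟨t, rfl⟩ := (mem_rootSubgroup_iff hD _ _).1 hz
    rw [← Q_eq_closure hD] at hg
    exact Q_comm_top hD (good hD) T hg t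
  · rintro _ ⟨r, t, hr, h1, rfl⟩ _ ⟨s, u, hs, h2, rfl⟩
    obtain ⟨z, hz⟩ := comm_one hD (good hD) T hs h2 hr h1 u t
    -- `x_r x_s = x_s x_r x_β(z)`
    have e : xG hD r t * xG hD s u * (xG hD r t)⁻¹ * (xG hD s u)⁻¹ = xG hD β z := by
      have h5 : xG hD r t * xG hD s u ∈ Q D F β :=
        Subgroup.mul_mem _ (xG_mem_Q hD hr h1 t) (xG_mem_Q hD hs h2 u)
      have h6 : xG hD s u * xG hD r t ∈ Q D F β :=
        Subgroup.mul_mem _ (xG_mem_Q hD hs h2 u) (xG_mem_Q hD hr h1 t)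
      have h7 := Q_comm_top hD (good hD) T h6 z
      rw [hz, h7]
      group
    rw [e]
    exact xG_mem_rootSubgroup hD β z

section card

variable [Finite F]

theorem kap_form (hD : InList D) (T : Hi D β) (c : ℕ → F) (t : F) {s : ℕ} (hs : s ∈ lev1 D β) :
    kap D β s ((Wd hD (lev1 D β) c * xG hD β t : GL D.Idx F) : Matrix D.Idx D.Idx F) = c s := by
  have G := good hD
  have hl : ∀ r ∈ lev1 D β, r < D.nroots ∧ car D β r = 1 := fun r hr => mem_lev1.1 hr
  have hs' := hl s hs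
  rw [kap_mul hD G T hs'.1 hs'.2 (Q_le_Rg hD β (Wd_mem_Q hD _ c hl)) (Q_le_Rg hD β (xb_mem_Q hD T t)),
    kap_Wd hD G T hs'.1 hs'.2 c _ hl nodup_lev1, if_pos hs, coe_xG,
    kap_x_ne hD G T hs'.1 hs'.2 T.lt (by rw [G.car_self T.lt]; norm_num), add_zero]
  rintro rfl
  rw [G.car_self T.lt] at hs'
  norm_num at hs'

/-- **The order of `Q`.** -/
theorem card_Q (hD : InList D) (T : Hi D β) : Nat.card ↥(Q D F β) = Nat.card F ^ ((lev1 D β).length + 1) := by
  classical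
  have hl : ∀ r ∈ lev1 D β, r < D.nroots ∧ car D β r = 1 := fun r hr => mem_lev1.1 hr
  let ex : ((lev1 D β).toFinset → F) → ℕ → F := fun c r => if h : r ∈ (lev1 D β).toFinset then c ⟨r, h⟩ else 0
  let φ : ((lev1 D β).toFinset → F) × F → ↥(Q D F β) := fun p =>
    ⟨Wd hD (lev1 D β) (ex p.1) * xG hD β p.2, Subgroup.mul_mem _ (Wd_mem_Q hD _ _ hl) (xb_mem_Q hD T p.2)⟩
  have hφ : Function.Bijective φ := by
    constructor
    · rintro ⟨c, t⟩ ⟨c', t'⟩ h
      have h1 : Wd hD (lev1 D β) (ex c) * xG hD β t = Wd hD (lev1 D β) (ex c') * xG hD β t' :=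
        congrArg Subtype.val h
      have h2 : c = c' := by
        funext s
        have hs : (s : ℕ) ∈ lev1 D β := List.mem_toFinset.1 s.2
        have h3 := congrArg (fun g : GL D.Idx F => kap D β s (g : Matrix D.Idx D.Idx F)) h1
        simp only [kap_form hD T _ _ hs] at h3
        simp only [ex, dif_pos s.2] at h3
        exact h3
      subst h2
      have h4 := mul_left_cancel h1
      exact Prod.ext rfl (xG_injective hD T.lt h4)
    · rintro ⟨v, hv⟩
      obtain ⟨t, ht⟩ := form hD (good hD) T hv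
      refine ⟨⟨fun s => kap D β s v, t⟩, Subtype.ext ?_⟩
      show Wd hD (lev1 D β) (ex fun s => kap D β s v) * xG hD β t = v
      conv_rhs => rw [ht]
      congr 1
      unfold Wd
      congr 1
      refine List.map_congr_left fun s hs => ?_
      simp only [ex, dif_pos (List.mem_toFinset.2 hs)]
  rw [← Nat.card_congr (Equiv.ofBijective φ hφ), Nat.card_prod, Nat.card_fun, pow_succ]
  congr 2
  rw [Nat.card_eq_fintype_card, Fintype.card_coe, List.toFinset_card_of_nodup nodup_lev1]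

end card

/-! ### in the Chevalley group -/

/-- `Q` as a subgroup of the Chevalley group -/
abbrev QT (D : ChevalleyDatum) (F : Type u) [Field F] (β : ℕ) : Subgroup ↥(D.group F) :=
  (Q D F β).subgroupOf (D.group F)

theorem Q_le_group (hD : InList D) : Q D F β ≤ D.group F :=
  (Q_le_iff hD).2 fun r _ _ t => xG_mem_group hD r t

theorem card_QT [Finite F] (hD : InList D) (T : Hi D β) :
    Nat.card (QT D F β) = Nat.card F ^ ((lev1 D β).length + 1) := by
  rw [← card_Q hD T]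
  exact Nat.card_congr (Subgroup.subgroupOfEquivOfLe (Q_le_group hD)).toEquiv

open Cfsg.Agent.H70.ChevFix (XX mem_XX)

theorem card_XX [Finite F] (hD : InList D) {r : ℕ} (hr : r < D.nroots) : Nat.card (XX D F r) = Nat.card F := by
  symm
  refine Nat.card_congr (Equiv.ofBijective (fun t : F => (⟨Cfsg.Agent.H70.ChevFix.xe hD r t,
    Cfsg.Agent.H70.ChevFix.xe_mem_XX hD r t⟩ : XX D F r)) ⟨?_, ?_⟩)
  · intro a b h
    exact Cfsg.Agent.H70.ChevFix.xe_inj hD hr (congrArg Subtype.val h)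
  · rintro ⟨x, hx⟩
    obtain ⟨t, rfl⟩ := (mem_XX hD).1 hx
    exact ⟨t, rfl⟩

theorem comm_QT (hD : InList D) (T : Hi D β) {x y : ↥(D.group F)} (hx : x ∈ QT D F β) (hy : y ∈ QT D F β) :
    x * y * x⁻¹ * y⁻¹ ∈ XX D F β := comm_Q hD T hx hy

theorem XX_le_QT (hD : InList D) (T : Hi D β) : XX D F β ≤ QT D F β := by
  intro x hx
  obtain ⟨t, rfl⟩ := (mem_XX hD).1 hx
  exact xb_mem_Q hD T t

theorem QT_comm_XX (hD : InList D) (T : Hi D β) {x z : ↥(D.group F)} (hx : x ∈ QT D F β) (hz : z ∈ XX D F β) :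
    x * z = z * x := by
  obtain ⟨t, rfl⟩ := (mem_XX hD).1 hz
  exact Subtype.ext (Q_comm_top hD (good hD) T hx t)

/-- **`N(X_θ) ≤ N(Q)`.** -/
theorem normalizer_le (hD : InList D) {g : ↥(D.group F)}
    (hg : g ∈ Subgroup.normalizer (XX D F (D.nroots - 1) : Set ↥(D.group F))) :
    g ∈ Subgroup.normalizer (QT D F (D.nroots - 1) : Set ↥(D.group F)) := by
  have hP : ∀ g : ↥(D.group F), g ∈ Subgroup.normalizer (XX D F (D.nroots - 1) : Set ↥(D.group F)) →
      (g : GL D.Idx F) ∈ P F D := by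
    intro g hg
    rw [Subgroup.mem_normalizer_iff] at hg
    have h1 := (hg (Cfsg.Agent.H70.ChevFix.xe hD (D.nroots - 1) 1)).1 (Cfsg.Agent.H70.ChevFix.xe_mem_XX hD _ 1)
    obtain ⟨t, ht⟩ := (mem_XX hD).1 h1
    exact mem_P_of_conj hD g.2 one_ne_zero (congrArg Subtype.val ht)
  refine mem_normalizer_of (fun x hx => ?_) (fun x hx => ?_)
  · exact P_conj_Q hD (hP g hg) _ hx
  · have := P_conj_Q hD (hP g⁻¹ (Subgroup.inv_mem _ hg)) _ hx
    rw [Subgroup.coe_inv, inv_inv] at this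
    exact this

/-- an element of the opposite of `Q` commuting with `x_θ(t)` is trivial -/
theorem comm_zero (hD : InList D) {v : ↥(D.group F)} (hv : v ∈ QT D F 0) {t : F} (ht : t ≠ 0)
    (h : v * Cfsg.Agent.H70.ChevFix.xe hD (D.nroots - 1) t = Cfsg.Agent.H70.ChevFix.xe hD (D.nroots - 1) t * v) :
    v = 1 := by
  have h1 : (v : GL D.Idx F) * xG hD (top D) t * (v : GL D.Idx F)⁻¹ = xG hD (top D) t := by
    have h2 := congrArg (fun x : ↥(D.group F) => (x : GL D.Idx F)) h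
    have h3 : (v : GL D.Idx F) * xG hD (top D) t = xG hD (top D) t * (v : GL D.Idx F) := h2
    rw [h3, mul_inv_cancel_right]
  exact Subtype.ext (P_inf_Q0 hD (mem_P_of_conj hD v.2 ht h1) hv)

end Cfsg.Agent.H129.IFE
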